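import Mathlib

/-!
The monomial real representation of the extraspecial 2-group of plus type: the matrices `P v`
indexed by `(Fin n → ZMod 2) × (Fin n → ZMod 2)`, their relations, and the realisation of
orthogonal transformations by orthogonal intertwining matrices.
-/

set_option autoImplicit false

namespace CfsgLib.PlusLift

open Matrix

variable {n : ℕ}

/-- The index set of the matrices. -/
abbrev X (n : ℕ) : Type := Fin n → ZMod 2

/-- The hyperbolic space of dimension `2 n`. -/
abbrev V (n : ℕ) : Type := X n × X n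

/-- The sign character of `ZMod 2`. -/
def sgn (t : ZMod 2) : ℝ := if t = 0 then 1 else -1

theorem sgn_zero : sgn 0 = 1 := if_pos rfl

theorem sgn_one : sgn 1 = -1 := if_neg (by decide)

theorem cases_zmod_two : ∀ t : ZMod 2, t = 0 ∨ t = 1 := by decide

theorem sgn_add (s t : ZMod 2) : sgn (s + t) = sgn s * sgn t := by
  rcases cases_zmod_two s with rfl | rfl <;> rcases cases_zmod_two t with rfl | rfl <;>
    simp [sgn_zero, sgn_one, show (1 : ZMod 2) + 1 = 0 from rfl]

theorem sgn_mul_self (s : ZMod 2) : sgn s * sgn s = 1 := by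
  rw [← sgn_add, CharTwo.add_self_eq_zero, sgn_zero]

theorem sgn_ne_zero (s : ZMod 2) : sgn s ≠ 0 := fun h => by
  simpa [h] using sgn_mul_self s

theorem sgn_injective : Function.Injective sgn := by
  intro s t h
  rcases cases_zmod_two s with rfl | rfl <;> rcases cases_zmod_two t with rfl | rfl <;>
    first | rfl | (simp [sgn_zero, sgn_one] at h; norm_num at h)

theorem sgn_eq_one_iff (s : ZMod 2) : sgn s = 1 ↔ s = 0 :=
  ⟨fun h => sgn_injective (h.trans sgn_zero.symm), fun h => h ▸ sgn_zero⟩

/-- The signed permutation matrix attached to a vector. -/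
def P (v : V n) : Matrix (X n) (X n) ℝ :=
  of fun x y => if y = x + v.1 then sgn (v.2 ⬝ᵥ x) else 0

/-- The cocycle of the matrices `P`. -/
def c (v w : V n) : ZMod 2 := w.2 ⬝ᵥ v.1

theorem P_mul (v w : V n) : P v * P w = sgn (c v w) • P (v + w) := by
  ext x y
  rw [Matrix.mul_apply, Finset.sum_eq_single (x + v.1)]
  · simp only [P, of_apply, if_true, Matrix.smul_apply, smul_eq_mul, Prod.fst_add, Prod.snd_add,
      c, add_assoc, mul_ite, mul_zero]
    split_ifs
    · rw [dotProduct_add, sgn_add, add_dotProduct, sgn_add]; ring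
    · rfl
  · intro z _ hz
    simp [P, hz]
  · simp

theorem P_zero : P (0 : V n) = 1 := by
  ext x y
  simp [P, Matrix.one_apply, eq_comm, sgn_zero]

theorem add_self_V (v : V n) : v + v = 0 := by
  ext i <;> exact CharTwo.add_self_eq_zero _

theorem P_transpose_mul (v : V n) : (P v)ᵀ * P v = 1 := by
  ext x z
  simp only [Matrix.mul_apply, P, of_apply, Matrix.transpose_apply, Matrix.one_apply, ite_mul,
    zero_mul, mul_ite, mul_zero]
  rw [Finset.sum_eq_single (x + v.1)]
  · have h : x + v.1 + v.1 = x := by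
      ext i; simp [add_assoc, CharTwo.add_self_eq_zero]
    rw [h]
    rcases eq_or_ne x z with rfl | hne
    · simp [sgn_mul_self]
    · simp [hne, hne.symm]
  · intro y _ hy
    have : x ≠ y + v.1 := fun h => hy (by
      subst h; ext i; simp [add_assoc, CharTwo.add_self_eq_zero])
    simp [this]
  · simp

theorem P_mul_transpose (v : V n) : P v * (P v)ᵀ = 1 :=
  mul_eq_one_comm.1 (P_transpose_mul v)

theorem sum_sgn_dot {b : X n} (hb : b ≠ 0) : ∑ x : X n, sgn (b ⬝ᵥ x) = 0 := by
  obtain ⟨i, hi⟩ := Function.ne_iff.1 hb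
  have hi1 : b i = 1 := (cases_zmod_two (b i)).resolve_left hi
  have h : ∀ x : X n, sgn (b ⬝ᵥ (x + Pi.single i 1)) = -sgn (b ⬝ᵥ x) := fun x => by
    rw [dotProduct_add, sgn_add, dotProduct_single, hi1, mul_one, sgn_one]; ring
  have h2 := Equiv.sum_comp (Equiv.addRight (Pi.single i (1 : ZMod 2))) (fun x : X n => sgn (b ⬝ᵥ x))
  simp only [Equiv.coe_addRight, h, Finset.sum_neg_distrib] at h2
  linarith

theorem trace_P {v : V n} (hv : v ≠ 0) : (P v).trace = 0 := by
  by_cases ha : v.1 = 0
  · have hb : v.2 ≠ 0 := fun h => hv (Prod.ext ha h)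
    simpa [Matrix.trace, P, ha] using sum_sgn_dot hb
  · simp [Matrix.trace, P, ha]

theorem trace_P_zero : (P (0 : V n)).trace = (Fintype.card (X n) : ℝ) := by
  rw [P_zero, Matrix.trace_one]

/-- A matrix commuting with all `P v` is scalar. -/
theorem eq_scalar_of_commute {M : Matrix (X n) (X n) ℝ} (h : ∀ v, M * P v = P v * M) :
    M = M 0 0 • 1 := by
  have hd : ∀ x y, x ≠ y → M x y = 0 := by
    intro x y hxy
    obtain ⟨i, hi⟩ := Function.ne_iff.1 hxy
    have he := congrFun (congrFun (h (0, Pi.single i 1)) x) y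
    simp [Matrix.mul_apply, P, single_dotProduct] at he
    have : sgn (x i) ≠ sgn (y i) := fun he' => hi (sgn_injective he')
    by_contra hne
    apply this
    exact mul_right_cancel₀ hne (he.symm.trans (mul_comm _ _))
  have hdiag : ∀ a, M a a = M 0 0 := by
    intro a
    have he := congrFun (congrFun (h (a, 0)) 0) a
    simp [Matrix.mul_apply, P, sgn_zero] at he
    exact he.symm
  ext x y
  rcases eq_or_ne x y with rfl | hne
  · simp [hdiag x]
  · simp [hd x y hne, hne]

theorem sgn_smul_P_inj {s t : ZMod 2} {v w : V n} (h : sgn s • P v = sgn t • P w) :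
    s = t ∧ v = w := by
  have he : ∀ x y, sgn s * P v x y = sgn t * P w x y := fun x y => congrFun (congrFun h x) y
  have h1 : v.1 = w.1 := by
    by_contra hne
    have := he 0 v.1
    simp [P, hne, sgn_ne_zero] at this
  have h0 : s = t := sgn_injective (by simpa [P, h1, sgn_zero] using he 0 v.1)
  refine ⟨h0, Prod.ext h1 (funext fun i => sgn_injective ?_)⟩
  have := he (Pi.single i 1) (Pi.single i 1 + v.1)
  subst h0
  simpa [P, h1, sgn_ne_zero] using this

theorem c_add_left (u v w : V n) : c (u + v) w = c u w + c v w := dotProduct_add _ _ _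

theorem c_add_right (u v w : V n) : c u (v + w) = c u v + c u w := add_dotProduct _ _ _

/-- The commutator form. -/
def comForm (u v : V n) : ZMod 2 := c u v + c v u

theorem P_comm (u v : V n) : P u * P v = sgn (comForm u v) • (P v * P u) := by
  rw [P_mul, P_mul, smul_smul, add_comm v u, comForm, sgn_add, mul_assoc, sgn_mul_self, mul_one]

theorem exists_comForm {l : V n → ZMod 2} (hl : ∀ v w, l (v + w) = l v + l w) :
    ∃ u, ∀ v, comForm u v = l v := by
  let lin : V n →ₗ[ZMod 2] ZMod 2 := (AddMonoidHom.mk' l hl).toZModLinearMap 2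
  have hlin : ∀ v, lin v = l v := fun _ => rfl
  refine ⟨((dotProductEquiv (ZMod 2) (Fin n)).symm (lin ∘ₗ LinearMap.inr _ _ _),
    (dotProductEquiv (ZMod 2) (Fin n)).symm (lin ∘ₗ LinearMap.inl _ _ _)), fun v => ?_⟩
  have key : ∀ (f : X n →ₗ[ZMod 2] ZMod 2) a,
      (dotProductEquiv (ZMod 2) (Fin n)).symm f ⬝ᵥ a = f a := fun f a =>
    DFunLike.congr_fun ((dotProductEquiv (ZMod 2) (Fin n)).apply_symm_apply f) a
  simp only [comForm, c]
  rw [dotProduct_comm v.2, key, key]
  simp only [LinearMap.comp_apply, LinearMap.inr_apply, LinearMap.inl_apply, hlin]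
  rw [← hl]
  congr 1
  ext i <;> simp

/-- A function defining a second system with the same relations has an orthogonal intertwiner. -/
theorem exists_intertwiner (γ : V n ≃ₗ[ZMod 2] V n) (f : V n → ZMod 2)
    (hf : ∀ v w, f (v + w) = f v + f w + (c (γ v) (γ w) + c v w)) :
    ∃ g : Matrix (X n) (X n) ℝ, gᵀ * g = 1 ∧
      ∀ v, g * P v = sgn (f v) • (P (γ v) * g) := by
  let P' : V n → Matrix (X n) (X n) ℝ := fun v => sgn (f v) • P (γ v)
  have hmul : ∀ v w, P' v * P' w = sgn (c v w) • P' (v + w) := by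
    intro v w
    simp only [P', Matrix.smul_mul, Matrix.mul_smul, smul_smul, P_mul, map_add, hf]
    congr 1
    simp only [sgn_add]
    calc sgn (f w) * (sgn (f v) * sgn (c (γ v) (γ w)))
        = sgn (f w) * sgn (f v) * sgn (c (γ v) (γ w)) * (sgn (c v w) * sgn (c v w)) := by
          rw [sgn_mul_self, mul_one, mul_assoc]
      _ = _ := by ring
  have horth : ∀ v, (P' v)ᵀ * P' v = 1 := fun v => by
    simp [P', Matrix.transpose_smul, Matrix.smul_mul, Matrix.mul_smul, smul_smul, sgn_mul_self,
      P_transpose_mul]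
  let T : Matrix (X n) (X n) ℝ → Matrix (X n) (X n) ℝ :=
    fun M => ∑ v, P' v * M * (P v)ᵀ
  have hT : ∀ M u, T M * P u = P' u * T M := by
    intro M u
    have h1 : P' u * T M * (P u)ᵀ = T M := by
      simp only [T, Finset.mul_sum, Finset.sum_mul]
      rw [← Equiv.sum_comp (Equiv.addLeft u) (fun v => P' v * M * (P v)ᵀ)]
      refine Finset.sum_congr rfl fun v _ => ?_
      have : P' u * (P' v * M * (P v)ᵀ) * (P u)ᵀ = (P' u * P' v) * M * (P u * P v)ᵀ := by
        rw [Matrix.transpose_mul]; simp only [Matrix.mul_assoc]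
      rw [this, hmul, P_mul, Equiv.coe_addLeft, Matrix.transpose_smul, Matrix.smul_mul,
        Matrix.smul_mul, Matrix.mul_smul, smul_smul, sgn_mul_self, one_smul]
    conv_lhs => rw [← h1]
    rw [Matrix.mul_assoc (P' u * T M), P_transpose_mul, Matrix.mul_one]
  obtain ⟨M, hM⟩ : ∃ M, T M ≠ 0 := by
    by_contra hne
    push Not at hne
    have hsum : ∑ x, ∑ y, T (Matrix.single x y 1) x y =
        ∑ v, (P' v).trace * (P v).trace := by
      simp only [T, Matrix.sum_apply]
      have he : ∀ (A B : Matrix (X n) (X n) ℝ) x y,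
          (A * Matrix.single x y (1 : ℝ) * Bᵀ : Matrix (X n) (X n) ℝ) x y = A x x * B y y := by
        intro A B x y
        rw [Matrix.mul_apply, Finset.sum_eq_single y]
        · rw [Matrix.mul_single_apply_same]; simp
        · intro z _ hz; rw [Matrix.mul_single_apply_of_ne _ _ _ _ _ hz]; simp
        · simp
      simp only [he]
      calc ∑ x, ∑ y, ∑ v, P' v x x * P v y y = ∑ x, ∑ v, ∑ y, P' v x x * P v y y :=
            Finset.sum_congr rfl fun x _ => Finset.sum_comm
        _ = ∑ v, ∑ x, ∑ y, P' v x x * P v y y := Finset.sum_comm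
        _ = _ := Finset.sum_congr rfl fun v _ => (Finset.sum_mul_sum _ _ _ _).symm
    have hf0 : f 0 = 0 := by
      have := hf 0 0
      simpa [c, CharTwo.add_self_eq_zero] using this
    rw [Finset.sum_eq_single (0 : V n) (fun v _ hv => by rw [trace_P hv, mul_zero]) (by simp)]
      at hsum
    simp [P', hne, hf0, sgn_zero, map_zero, trace_P_zero] at hsum
  set g := T M with hg
  have hcomm : ∀ u, gᵀ * g * P u = P u * (gᵀ * g) := by
    intro u
    have hgu := hT M u
    rw [← hg] at hgu
    have h2 : (P u)ᵀ * gᵀ = gᵀ * (P' u)ᵀ := by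
      rw [← Matrix.transpose_mul, ← Matrix.transpose_mul, hgu]
    have h3 : gᵀ * P' u = P u * gᵀ := by
      have := congrArg (fun A => P u * A * P' u) h2
      simp only [← Matrix.mul_assoc, P_mul_transpose, Matrix.one_mul] at this
      simpa [Matrix.mul_assoc, horth] using this
    rw [Matrix.mul_assoc, hgu, ← Matrix.mul_assoc, h3, Matrix.mul_assoc]
  have hs := eq_scalar_of_commute hcomm
  set a := (gᵀ * g) 0 0 with ha
  have hsum : ∀ x, (gᵀ * g) x x = ∑ z, g z x ^ 2 := fun x => by
    simp [Matrix.mul_apply, pow_two]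
  have ha0 : 0 < a := by
    refine lt_of_le_of_ne (by rw [ha, hsum]; exact Finset.sum_nonneg fun z _ => sq_nonneg _) ?_
    intro h0
    apply hM
    ext z x
    have hx : ∑ z, g z x ^ 2 = 0 := by rw [← hsum, hs, ← h0]; simp
    exact pow_eq_zero_iff two_ne_zero |>.1
      ((Finset.sum_eq_zero_iff_of_nonneg (fun z _ => sq_nonneg _)).1 hx z (Finset.mem_univ _))
  refine ⟨(Real.sqrt a)⁻¹ • g, ?_, fun v => ?_⟩
  · rw [Matrix.transpose_smul, Matrix.smul_mul, Matrix.mul_smul, smul_smul, hs, smul_smul,
      ← mul_inv, Real.mul_self_sqrt ha0.le, inv_mul_cancel₀ ha0.ne', one_smul]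
  · have := hT M v
    rw [← hg] at this
    rw [Matrix.smul_mul, this, Matrix.mul_smul, smul_comm]
    simp only [P', Matrix.smul_mul]

/-- A matrix with all intertwining signs trivial on the space is a signed `P u`. -/
theorem exists_eq_sgn_smul_P {g : Matrix (X n) (X n) ℝ} (hg : gᵀ * g = 1)
    (h : ∀ v, ∃ s, g * P v = sgn s • (P v * g)) :
    ∃ t u, g = sgn t • P u := by
  choose s hs using h
  have hg' : g * gᵀ = 1 := mul_eq_one_comm.1 hg
  have hadd : ∀ v w, s (v + w) = s v + s w := by
    intro v w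
    have h1 : sgn (c v w) • (g * P (v + w)) = g * P v * P w := by
      rw [Matrix.mul_assoc, P_mul, Matrix.mul_smul]
    rw [hs, hs, Matrix.smul_mul, Matrix.mul_assoc, hs, Matrix.mul_smul, smul_smul, smul_smul,
      ← Matrix.mul_assoc, P_mul, Matrix.smul_mul, smul_smul] at h1
    have h2 := congrArg (fun A => A * gᵀ) h1
    simp only [Matrix.smul_mul, Matrix.mul_assoc, hg', Matrix.mul_one] at h2
    rw [← sgn_add, ← sgn_add, ← sgn_add] at h2
    have h3 := (sgn_smul_P_inj h2).1
    have key : ∀ p q r k : ZMod 2, k + p = q + r + k → p = q + r := by decide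
    exact key _ _ _ _ h3
  obtain ⟨u, hu⟩ := exists_comForm hadd
  have hcomm : ∀ v, (P u)ᵀ * g * P v = P v * ((P u)ᵀ * g) := by
    intro v
    have h1 : (P u)ᵀ * P v = sgn (s v) • (P v * (P u)ᵀ) := by
      have h2 := congrArg (fun A => (P u)ᵀ * A * (P u)ᵀ) (P_comm u v)
      simp only [Matrix.mul_smul, Matrix.smul_mul, Matrix.mul_assoc, P_mul_transpose,
        Matrix.mul_one] at h2
      rw [← Matrix.mul_assoc, P_transpose_mul, Matrix.one_mul, hu] at h2
      rw [h2, smul_smul, sgn_mul_self, one_smul]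
    rw [Matrix.mul_assoc, hs, Matrix.mul_smul, ← Matrix.mul_assoc, h1, Matrix.smul_mul, smul_smul,
      sgn_mul_self, one_smul, Matrix.mul_assoc]
  have hsc := eq_scalar_of_commute hcomm
  set a := ((P u)ᵀ * g) 0 0
  have hgu : g = a • P u := by
    have := congrArg (fun A => P u * A) hsc
    simpa [← Matrix.mul_assoc, P_mul_transpose] using this
  have ha : a * a = 1 := by
    have := hg
    rw [hgu, Matrix.transpose_smul, Matrix.smul_mul, Matrix.mul_smul, smul_smul,
      P_transpose_mul] at this
    simpa using congrFun (congrFun this 0) 0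
  rcases mul_self_eq_one_iff.1 ha with h | h
  · exact ⟨0, u, by rw [hgu, h, sgn_zero]⟩
  · exact ⟨1, u, by rw [hgu, h, sgn_one]⟩

end CfsgLib.PlusLift
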