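import Mathlib

/-!
Quadratic forms of plus type over the field with two elements in hyperbolic coordinates, and the
existence of a function with prescribed alternating defect.
-/

set_option autoImplicit false

namespace CfsgLib.PlusLift

open Module

/-- An alternating bilinear form over `ZMod 2` is the defect of additivity of some function. -/
theorem exists_defect {V : Type*} [AddCommGroup V] [Module (ZMod 2) V] [Module.Finite (ZMod 2) V]
    (D : LinearMap.BilinForm (ZMod 2) V) (hD : ∀ v, D v v = 0) :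
    ∃ f : V → ZMod 2, ∀ v w, f (v + w) = f v + f w + D v w := by
  classical
  let b := Module.finBasis (ZMod 2) V
  have hsym : ∀ v w, D v w = D w v := fun v w => by
    have h := hD (v + w)
    simp only [map_add, LinearMap.add_apply, hD, zero_add, add_zero] at h
    have : ∀ a c : ZMod 2, a + c = 0 → a = c := by decide
    exact (this _ _ h).symm
  let L := Matrix.toBilin b (Matrix.of fun i j => if i < j then D (b i) (b j) else 0)
  refine ⟨fun v => L v v, fun v w => ?_⟩
  have hL : ∀ i j, L (b i) (b j) = if i < j then D (b i) (b j) else 0 := by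
    intro i j
    simp only [L, Matrix.toBilin_apply, Matrix.of_apply, Basis.repr_self, Finsupp.single_apply]
    rw [Finset.sum_eq_single i (fun k _ hk => by simp [Ne.symm hk]) (by simp)]
    simp
  have hDL : D = L + L.flip := by
    refine LinearMap.BilinForm.ext_basis b (fun i j => ?_)
    simp only [LinearMap.add_apply, LinearMap.BilinForm.flip_apply, hL]
    rcases lt_trichotomy i j with h | h | h
    · simp [h, not_lt.2 h.le]
    · subst h; simp [hD]
    · simp [h, not_lt.2 h.le, hsym (b i) (b j)]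
  rw [hDL]
  simp only [map_add, LinearMap.add_apply, LinearMap.BilinForm.flip_apply]
  abel

/-- Hyperbolic coordinates for a quadratic form of plus type over the field with two elements. -/
theorem exists_hyperbolic_coords {U : Type*} [AddCommGroup U] [Module (ZMod 2) U]
    [Module.Finite (ZMod 2) U] {n : ℕ} (hn : finrank (ZMod 2) U = 2 * n)
    (q : QuadraticForm (ZMod 2) U) (hnd : (QuadraticMap.polarBilin q).Nondegenerate)
    (W : Submodule (ZMod 2) U) (hW : finrank (ZMod 2) ↥W = n) (hqW : ∀ w ∈ W, q w = 0) :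
    ∃ Θ : ((Fin n → ZMod 2) × (Fin n → ZMod 2)) ≃ₗ[ZMod 2] U,
      ∀ p, q (Θ p) = dotProduct p.2 p.1 := by
  classical
  set B := QuadraticMap.polarBilin q with hB
  have hadd : ∀ x y, q (x + y) = q x + q y + B x y := fun x y => by
    simp [hB, QuadraticMap.polar]
  obtain ⟨W', hWW⟩ := W.exists_isCompl
  have hW' : finrank (ZMod 2) ↥W' = n := by
    have := Submodule.finrank_add_eq_of_isCompl hWW; omega
  have hBW : ∀ x ∈ W, ∀ y ∈ W, B x y = 0 := fun x hx y hy => by
    have := hadd x y
    rw [hqW _ hx, hqW _ hy, hqW _ (W.add_mem hx hy), zero_add, zero_add] at this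
    exact this.symm
  have hdec : ∀ u : U, ∃ a ∈ W, ∃ c ∈ W', a + c = u := fun u => by
    have : u ∈ W ⊔ W' := by rw [hWW.sup_eq_top]; trivial
    exact Submodule.mem_sup.1 this
  let e0 : ↥W →ₗ[ZMod 2] Module.Dual (ZMod 2) ↥W' := LinearMap.domRestrict₁₂ B W W'
  have he0 : ∀ (w : ↥W) (x : ↥W'), e0 w x = B w x := fun _ _ => rfl
  have hinj : Function.Injective e0 := by
    rw [injective_iff_map_eq_zero]
    intro w hw
    refine Subtype.ext (hnd.1 w fun u => ?_)
    obtain ⟨a, ha, c, hc, rfl⟩ := hdec u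
    rw [map_add, hBW _ w.2 _ ha, zero_add]
    exact DFunLike.congr_fun hw ⟨c, hc⟩
  let e := e0.linearEquivOfInjective hinj (by rw [hW, Subspace.dual_finrank_eq, hW'])
  have he : ∀ f : Module.Dual (ZMod 2) ↥W', ∀ x : ↥W', B (e.symm f : U) (x : U) = f x := by
    intro f x
    rw [← he0]
    exact DFunLike.congr_fun (e.apply_symm_apply f) x
  let b' : Basis (Fin n) (ZMod 2) ↥W' := (Module.finBasis (ZMod 2) ↥W').reindex (finCongr hW')
  let φ : (Fin n → ZMod 2) ≃ₗ[ZMod 2] ↥W' := b'.equivFun.symm
  let q' : QuadraticForm (ZMod 2) ↥W' := q.comp W'.subtype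
  let L : ↥W' →ₗ[ZMod 2] ↥W := e.symm.toLinearMap ∘ₗ (q'.toBilin b')
  have hq' : ∀ x : ↥W', q' x = q'.toBilin b' x x := fun x => by
    conv_lhs => rw [← q'.toQuadraticMap_toBilin b']
    rfl
  have htwo : ∀ a : ZMod 2, a + a = 0 := by decide
  have hflip : ∀ x y : U, B x y = B y x := fun x y => by
    simp [hB, QuadraticMap.polar_comm]
  have hsing : ∀ x : ↥W', q ((x : U) + (L x : U)) = 0 := by
    intro x
    rw [hadd, hqW _ (L x).2, hflip]
    rw [show B (L x : U) (x : U) = q'.toBilin b' x x from he _ _, ← hq', add_zero]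
    exact htwo _
  let dual : (Fin n → ZMod 2) →ₗ[ZMod 2] Module.Dual (ZMod 2) ↥W' :=
    (dotProductEquiv (ZMod 2) (Fin n)).toLinearMap.compl₂ φ.symm.toLinearMap
  have hdual : ∀ b x, dual b x = dotProduct b (φ.symm x) := fun _ _ => rfl
  let g : (Fin n → ZMod 2) →ₗ[ZMod 2] U :=
    (W'.subtype + W.subtype ∘ₗ L) ∘ₗ φ.toLinearMap
  let h : (Fin n → ZMod 2) →ₗ[ZMod 2] U := W.subtype ∘ₗ e.symm.toLinearMap ∘ₗ dual
  let T : ((Fin n → ZMod 2) × (Fin n → ZMod 2)) →ₗ[ZMod 2] U := LinearMap.coprod g h
  have hT : ∀ p, T p = (φ p.1 : U) + (L (φ p.1) : U) + (e.symm (dual p.2) : U) := fun _ => rfl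
  have hTinj : Function.Injective T := by
    rw [injective_iff_map_eq_zero]
    intro p hp
    rw [hT, add_assoc] at hp
    have hmem : (φ p.1 : U) ∈ W := by
      rw [eq_neg_of_add_eq_zero_left hp]
      exact W.neg_mem (W.add_mem (L (φ p.1)).2 (e.symm (dual p.2)).2)
    have h0 : (φ p.1 : U) = 0 := Submodule.disjoint_def.1 hWW.disjoint _ hmem (φ p.1).2
    have h0' : φ p.1 = 0 := Subtype.ext h0
    have h1 : p.1 = 0 := φ.map_eq_zero_iff.1 h0'
    rw [h0', map_zero] at hp
    simp at hp
    have h2 : dual p.2 = 0 := by simpa using hp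
    refine Prod.ext h1 (funext fun i => ?_)
    have := DFunLike.congr_fun h2 (φ (Pi.single i 1))
    simpa [hdual] using this
  have hfin : finrank (ZMod 2) ((Fin n → ZMod 2) × (Fin n → ZMod 2)) = finrank (ZMod 2) U := by
    rw [hn, Module.finrank_prod, Module.finrank_fin_fun, two_mul]
  refine ⟨T.linearEquivOfInjective hTinj hfin, fun p => ?_⟩
  rw [LinearMap.linearEquivOfInjective_apply, hT, hadd, hsing, hqW _ (e.symm (dual p.2)).2,
    map_add, LinearMap.add_apply, hBW _ (L (φ p.1)).2 _ (e.symm (dual p.2)).2, hflip, he, hdual,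
    φ.symm_apply_apply]
  simp

end CfsgLib.PlusLift
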