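import Mathlib
import Cfsg.Agent.PlusLift.Model
import Cfsg.Agent.PlusLift.NormalForm

/-!
The group of orthogonal matrices normalising the extraspecial group of plus type, over a given
group of orthogonal transformations of the hyperbolic space.
-/

set_option autoImplicit false

namespace CfsgLib.PlusLift

open Matrix

variable {n : ℕ}

/-- The quadratic form of the model. -/
def q0 (v : V n) : ZMod 2 := c v v

/-- Pairs of an orthogonal matrix and a transformation it induces on the matrices `P v`. -/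
noncomputable def lifts (Γ : Subgroup (V n ≃ₗ[ZMod 2] V n)) :
    Subgroup ((Matrix (X n) (X n) ℝ)ˣ × Γ) where
  carrier := {r | (r.1 : Matrix (X n) (X n) ℝ)ᵀ * r.1 = 1 ∧
    ∀ v, ∃ s, (r.1 : Matrix (X n) (X n) ℝ) * P v = sgn s • (P ((r.2 : V n ≃ₗ[ZMod 2] V n) v) * r.1)}
  one_mem' := ⟨by simp, fun v => ⟨0, by simp [sgn_zero]⟩⟩
  mul_mem' := by
    rintro r r' ⟨hr, hr2⟩ ⟨hr', hr2'⟩
    refine ⟨?_, fun v => ?_⟩
    · simp only [Prod.fst_mul, Units.val_mul, Matrix.transpose_mul]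
      rw [Matrix.mul_assoc, ← Matrix.mul_assoc _ (r.1 : Matrix (X n) (X n) ℝ), hr, Matrix.one_mul,
        hr']
    · obtain ⟨s', hs'⟩ := hr2' v
      obtain ⟨s, hs⟩ := hr2 ((r'.2 : V n ≃ₗ[ZMod 2] V n) v)
      refine ⟨s' + s, ?_⟩
      simp only [Prod.fst_mul, Prod.snd_mul, Units.val_mul, Subgroup.coe_mul]
      rw [Matrix.mul_assoc, hs', Matrix.mul_smul, ← Matrix.mul_assoc, hs, Matrix.smul_mul,
        smul_smul, sgn_add, Matrix.mul_assoc]
      rfl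
  inv_mem' := by
    rintro r ⟨hr, hr2⟩
    have hinv : ((r.1⁻¹ : (Matrix (X n) (X n) ℝ)ˣ) : Matrix (X n) (X n) ℝ) = (r.1 : Matrix (X n) (X n) ℝ)ᵀ := by
      calc ((r.1⁻¹ : (Matrix (X n) (X n) ℝ)ˣ) : Matrix (X n) (X n) ℝ)
          = (r.1 : Matrix (X n) (X n) ℝ)ᵀ * r.1 * ↑r.1⁻¹ := by rw [hr, Matrix.one_mul]
        _ = _ := Units.mul_inv_cancel_right _ _
    refine ⟨?_, fun v => ?_⟩
    · simp only [Prod.fst_inv, hinv, Matrix.transpose_transpose]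
      exact mul_eq_one_comm.1 hr
    · obtain ⟨s, hs⟩ := hr2 (((r.2 : V n ≃ₗ[ZMod 2] V n)⁻¹) v)
      refine ⟨s, ?_⟩
      have hv : (r.2 : V n ≃ₗ[ZMod 2] V n) (((r.2 : V n ≃ₗ[ZMod 2] V n)⁻¹) v) = v :=
        LinearEquiv.apply_symm_apply _ _
      rw [hv] at hs
      simp only [Prod.fst_inv, Prod.snd_inv, Subgroup.coe_inv]
      have h1 := congrArg (fun A => sgn s • ((r.1⁻¹ : (Matrix (X n) (X n) ℝ)ˣ) : Matrix (X n) (X n) ℝ) * A *
        ((r.1⁻¹ : (Matrix (X n) (X n) ℝ)ˣ) : Matrix (X n) (X n) ℝ)) hs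
      simp only [Matrix.mul_smul, Matrix.smul_mul, Matrix.mul_assoc, Units.inv_mul_cancel_left,
        Units.mul_inv, Matrix.mul_one, smul_smul, sgn_mul_self, one_smul] at h1
      exact h1.symm

/-- The projection of a lift to the transformation it induces. -/
noncomputable def liftProj (Γ : Subgroup (V n ≃ₗ[ZMod 2] V n)) : lifts Γ →* Γ :=
  (MonoidHom.snd _ _).comp (lifts Γ).subtype

/-- The unit `± P u`. -/
noncomputable def unitP (t : ZMod 2) (u : V n) : (Matrix (X n) (X n) ℝ)ˣ where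
  val := sgn t • P u
  inv := sgn t • (P u)ᵀ
  val_inv := by simp [Matrix.smul_mul, Matrix.mul_smul, smul_smul, sgn_mul_self, P_mul_transpose]
  inv_val := by simp [Matrix.smul_mul, Matrix.mul_smul, smul_smul, sgn_mul_self, P_transpose_mul]

theorem unitP_mem (Γ : Subgroup (V n ≃ₗ[ZMod 2] V n)) (t : ZMod 2) (u : V n) :
    ((unitP t u, 1) : (Matrix (X n) (X n) ℝ)ˣ × Γ) ∈ lifts Γ := by
  refine ⟨?_, fun v => ⟨comForm u v, ?_⟩⟩
  · simp [unitP, Matrix.transpose_smul, Matrix.smul_mul, Matrix.mul_smul, smul_smul, sgn_mul_self,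
      P_transpose_mul]
  · simp only [unitP, Subgroup.coe_one, LinearEquiv.coe_one, id_eq, Matrix.smul_mul,
      Matrix.mul_smul, P_comm u v, smul_smul]
    rw [mul_comm]

/-- The element `± P u` of the kernel. -/
noncomputable def kerElt (Γ : Subgroup (V n ≃ₗ[ZMod 2] V n)) (p : ZMod 2 × V n) :
    (liftProj Γ).ker :=
  ⟨⟨(unitP p.1 p.2, 1), unitP_mem Γ p.1 p.2⟩, rfl⟩

theorem kerElt_val (Γ : Subgroup (V n ≃ₗ[ZMod 2] V n)) (p : ZMod 2 × V n) :
    (((kerElt Γ p : lifts Γ) : (Matrix (X n) (X n) ℝ)ˣ × Γ).1 : Matrix (X n) (X n) ℝ) =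
      sgn p.1 • P p.2 := rfl

theorem ker_ext {Γ : Subgroup (V n ≃ₗ[ZMod 2] V n)} {a b : (liftProj Γ).ker}
    (h : (((a : lifts Γ) : (Matrix (X n) (X n) ℝ)ˣ × Γ).1 : Matrix (X n) (X n) ℝ) =
      (((b : lifts Γ) : (Matrix (X n) (X n) ℝ)ˣ × Γ).1 : Matrix (X n) (X n) ℝ)) : a = b := by
  refine Subtype.ext (Subtype.ext (Prod.ext (Units.ext h) ?_))
  exact (MonoidHom.mem_ker.1 a.2).trans (MonoidHom.mem_ker.1 b.2).symm

theorem kerElt_bijective (Γ : Subgroup (V n ≃ₗ[ZMod 2] V n)) :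
    Function.Bijective (kerElt Γ) := by
  refine ⟨fun p q h => ?_, fun a => ?_⟩
  · have := congrArg (fun a : (liftProj Γ).ker =>
      (((a : lifts Γ) : (Matrix (X n) (X n) ℝ)ˣ × Γ).1 : Matrix (X n) (X n) ℝ)) h
    simp only [kerElt_val] at this
    exact Prod.ext (sgn_smul_P_inj this).1 (sgn_smul_P_inj this).2
  · obtain ⟨h1, h2⟩ := (a : lifts Γ).2
    have ha : ((a : lifts Γ) : (Matrix (X n) (X n) ℝ)ˣ × Γ).2 = 1 := MonoidHom.mem_ker.1 a.2
    obtain ⟨t, u, htu⟩ := exists_eq_sgn_smul_P h1 (fun v => by simpa [ha] using h2 v)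
    exact ⟨(t, u), ker_ext (by rw [kerElt_val]; exact htu.symm)⟩

theorem kerElt_mul (Γ : Subgroup (V n ≃ₗ[ZMod 2] V n)) (p q : ZMod 2 × V n) :
    kerElt Γ p * kerElt Γ q = kerElt Γ (p.1 + q.1 + c p.2 q.2, p.2 + q.2) := by
  refine ker_ext ?_
  simp only [Subgroup.coe_mul, Prod.fst_mul, Units.val_mul, kerElt_val, Matrix.smul_mul,
    Matrix.mul_smul, P_mul, smul_smul, sgn_add]
  congr 1
  ring

theorem kerElt_one (Γ : Subgroup (V n ≃ₗ[ZMod 2] V n)) : kerElt Γ (0, 0) = 1 := by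
  refine ker_ext ?_
  simp [kerElt_val, sgn_zero, P_zero]

theorem liftProj_surjective (Γ : Subgroup (V n ≃ₗ[ZMod 2] V n))
    (hΓ : ∀ γ ∈ Γ, ∀ v, q0 (γ v) = q0 v) : Function.Surjective (liftProj Γ) := by
  intro γ
  let γ' : V n ≃ₗ[ZMod 2] V n := γ
  let cb : LinearMap.BilinForm (ZMod 2) (V n) :=
    LinearMap.mk₂ (ZMod 2) c c_add_left (fun a u v => by simp [c, dotProduct_smul])
      c_add_right (fun a u v => by simp [c, smul_dotProduct])
  let D : LinearMap.BilinForm (ZMod 2) (V n) := cb.compl₁₂ γ'.toLinearMap γ'.toLinearMap + cb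
  have hD : ∀ v, D v v = 0 := fun v => by
    change q0 (γ' v) + q0 v = 0
    rw [hΓ _ γ.2]
    exact CharTwo.add_self_eq_zero _
  obtain ⟨f, hf⟩ := exists_defect D hD
  obtain ⟨g, hg, hg2⟩ := exists_intertwiner γ' f hf
  exact ⟨⟨(⟨g, gᵀ, mul_eq_one_comm.1 hg, hg⟩, γ), hg, fun v => ⟨f v, hg2 v⟩⟩, rfl⟩

theorem conj_kerElt {Γ : Subgroup (V n ≃ₗ[ZMod 2] V n)} (r : lifts Γ) (t : ZMod 2) (u : V n) :
    ∃ t', r * (kerElt Γ (t, u) : lifts Γ) * r⁻¹ =
      (kerElt Γ (t', ((liftProj Γ r : Γ) : V n ≃ₗ[ZMod 2] V n) u) : lifts Γ) := by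
  obtain ⟨s, hs⟩ := r.2.2 u
  refine ⟨t + s, mul_inv_eq_iff_eq_mul.2 ?_⟩
  refine Subtype.ext (Prod.ext (Units.ext ?_) ?_)
  · simp only [Subgroup.coe_mul, Prod.fst_mul, Units.val_mul, kerElt_val, Matrix.mul_smul,
      Matrix.smul_mul, hs, smul_smul, sgn_add]
    rfl
  · simp [kerElt]

end CfsgLib.PlusLift
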